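import Mathlib
import Cfsg.Prelude.Def_SolvableStructure
import Cfsg.Agent.S0582
import Cfsg.Agent.S0545
import Cfsg.Agent.Lib.Helper4.Conj
import Cfsg.Agent.Lib.Helper4.MaxSub
import Cfsg.Agent.Lib.Helper4.HallSys
import Cfsg.Agent.Lib.Helper4.Card
import Cfsg.Agent.Lib.Lead.Hall

set_option autoImplicit false

open scoped Pointwise

namespace Cfsg.Agent.Lib.Helper22.Carter

universe u

open Cfsg
open Cfsg.Agent.Lib.Helper4.Conj Cfsg.Agent.Lib.Helper4.HallSys

theorem top_of_selfnorm {G : Type u} [Group G] [Group.IsNilpotent G] (C : Subgroup G)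
    (h : Subgroup.normalizer (C : Set G) = C) : C = ⊤ := by
  by_contra hne
  have h1 := Group.normalizerCondition_of_isNilpotent (G := G) C (lt_top_iff_ne_top.mpr hne)
  rw [h] at h1
  exact lt_irrefl _ h1

theorem carter_top {G : Type u} [Group G] [Group.IsNilpotent G] :
    IsCarterSubgroup (⊤ : Subgroup G) :=
  ⟨inferInstance, top_le_iff.mp Subgroup.le_normalizer⟩

theorem mem_normalizer_of_conj_le {G : Type u} [Group G] [Finite G] {x : G} {H : Subgroup G}
    (h : ∀ y ∈ H, x * y * x⁻¹ ∈ H) : x ∈ Subgroup.normalizer (H : Set G) := by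
  rw [mem_normalizer_iff_conj_smul_eq]
  apply conj_smul_eq_of_le
  intro y hy
  rw [mem_conj_smul] at hy
  have h1 := h _ hy
  have e : x * (x⁻¹ * y * x) * x⁻¹ = y := by group
  rwa [e] at h1

theorem conj_mem_of_mem_normalizer {G : Type u} [Group G] {x : G} {H : Subgroup G}
    (hx : x ∈ Subgroup.normalizer (H : Set G)) {y : G} (hy : y ∈ H) : x * y * x⁻¹ ∈ H :=
  (Subgroup.mem_normalizer_iff.mp hx y).mp hy

theorem mem_of_mk_mem_map {G : Type u} [Group G] (N : Subgroup G) [N.Normal] {H : Subgroup G}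
    (hNH : N ≤ H) {x : G} (hx : QuotientGroup.mk' N x ∈ H.map (QuotientGroup.mk' N)) : x ∈ H := by
  have h1 : x ∈ (H.map (QuotientGroup.mk' N)).comap (QuotientGroup.mk' N) := hx
  rwa [Subgroup.comap_map_eq, QuotientGroup.ker_mk', sup_eq_left.2 hNH] at h1

theorem carter_conj_smul {G : Type u} [Group G] (g : G) {C : Subgroup G}
    (hC : IsCarterSubgroup C) : IsCarterSubgroup (MulAut.conj g • C) := by
  refine ⟨?_, ?_⟩
  · haveI := hC.1
    exact Group.nilpotent_of_mulEquiv (Subgroup.equivSMul (MulAut.conj g) C)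
  · ext x
    rw [mem_normalizer_iff_conj_smul_eq, mem_conj_smul]
    constructor
    · intro h
      have h2 : g⁻¹ * x * g ∈ Subgroup.normalizer (C : Set G) := by
        rw [mem_normalizer_iff_conj_smul_eq]
        have e : g⁻¹ * x * g = g⁻¹ * (x * g) := by group
        rw [e, ← conj_smul_smul, ← conj_smul_smul, h, conj_smul_smul, inv_mul_cancel,
          conj_one_smul]
      rw [hC.2] at h2
      exact h2
    · intro h
      have e : x * g = g * (g⁻¹ * x * g) := by group
      rw [conj_smul_smul, e, ← conj_smul_smul, conj_smul_self_of_mem h]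

theorem carter_subgroupOf {G : Type u} [Group G] [Finite G] {C T : Subgroup G}
    (hC : IsCarterSubgroup C) (hCT : C ≤ T) : IsCarterSubgroup (C.subgroupOf T) := by
  refine ⟨?_, ?_⟩
  · haveI := hC.1
    exact Group.nilpotent_of_mulEquiv (Subgroup.subgroupOfEquivOfLe hCT).symm
  · apply le_antisymm _ Subgroup.le_normalizer
    intro x hx
    rw [Subgroup.mem_subgroupOf]
    have h1 : (x : G) ∈ Subgroup.normalizer (C : Set G) := by
      apply mem_normalizer_of_conj_le
      intro y hy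
      have h2 := conj_mem_of_mem_normalizer hx (y := ⟨y, hCT hy⟩) (Subgroup.mem_subgroupOf.mpr hy)
      exact Subgroup.mem_subgroupOf.mp h2
    rw [hC.2] at h1
    exact h1

theorem carter_map_subtype {G : Type u} [Group G] [Finite G] {H : Subgroup G} {D : Subgroup H}
    (hD : IsCarterSubgroup D)
    (hN : Subgroup.normalizer ((D.map H.subtype : Subgroup G) : Set G) ≤ H) :
    IsCarterSubgroup (D.map H.subtype) := by
  refine ⟨?_, ?_⟩
  · haveI := hD.1
    exact Group.nilpotent_of_mulEquiv (D.equivMapOfInjective H.subtype H.subtype_injective)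
  · apply le_antisymm _ Subgroup.le_normalizer
    intro x hx
    have hxH : x ∈ H := hN hx
    have h1 : (⟨x, hxH⟩ : H) ∈ Subgroup.normalizer (D : Set H) := by
      apply mem_normalizer_of_conj_le
      intro y hy
      have h2 := conj_mem_of_mem_normalizer hx (Subgroup.mem_map_of_mem H.subtype hy)
      obtain ⟨z, hz, hze⟩ := h2
      have e : z = ⟨x, hxH⟩ * y * ⟨x, hxH⟩⁻¹ := Subtype.ext hze
      rw [← e]
      exact hz
    rw [hD.2] at h1
    exact ⟨⟨x, hxH⟩, h1, rfl⟩

theorem selfnorm_map_of_le {G : Type u} [Group G] [Finite G] (N : Subgroup G) [N.Normal]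
    {C : Subgroup G} (hNC : N ≤ C) (hC : Subgroup.normalizer (C : Set G) = C) :
    Subgroup.normalizer ((C.map (QuotientGroup.mk' N) : Subgroup (G ⧸ N)) : Set (G ⧸ N)) =
      C.map (QuotientGroup.mk' N) := by
  apply le_antisymm _ Subgroup.le_normalizer
  intro xb hxb
  obtain ⟨x, rfl⟩ := QuotientGroup.mk'_surjective N xb
  have h1 : x ∈ Subgroup.normalizer (C : Set G) := by
    apply mem_normalizer_of_conj_le
    intro y hy
    have h2 := conj_mem_of_mem_normalizer hxb (Subgroup.mem_map_of_mem (QuotientGroup.mk' N) hy)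
    rw [← map_inv, ← map_mul, ← map_mul] at h2
    exact mem_of_mk_mem_map N hNC h2
  rw [hC] at h1
  exact Subgroup.mem_map_of_mem _ h1

theorem le_of_coprime_normalizer {G : Type u} [Group G] [Finite G] {X H : Subgroup G}
    (hXN : X ≤ Subgroup.normalizer (H : Set G)) (hcop : (Nat.card X).Coprime H.index) :
    X ≤ H := by
  intro x hx
  have hxN : x ∈ Subgroup.normalizer (H : Set G) := hXN hx
  haveI hn : (H.subgroupOf (Subgroup.normalizer (H : Set G))).Normal :=
    Subgroup.normal_in_normalizer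
  have h1 := Subgroup.pow_index_mem (H.subgroupOf (Subgroup.normalizer (H : Set G))) ⟨x, hxN⟩
  rw [Subgroup.mem_subgroupOf] at h1
  have h2 : H.relIndex (Subgroup.normalizer (H : Set G)) ∣ H.index :=
    Subgroup.relIndex_dvd_index_of_le Subgroup.le_normalizer
  have h3 : orderOf x ∣ Nat.card X := by
    have h := orderOf_dvd_natCard (⟨x, hx⟩ : X)
    rwa [Subgroup.orderOf_mk] at h
  have h4 : (H.relIndex (Subgroup.normalizer (H : Set G))).Coprime (orderOf x) :=
    Nat.Coprime.coprime_dvd_left h2 (Nat.Coprime.coprime_dvd_right h3 hcop.symm)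
  obtain ⟨m, hm⟩ := exists_pow_eq_self_of_coprime h4
  have h5 : x ^ (H.relIndex (Subgroup.normalizer (H : Set G))) ∈ H := h1
  rw [← hm]
  exact H.pow_mem h5 m

theorem hall_normal_of_nilp {G : Type u} [Group G] [Finite G] [Group.IsNilpotent G]
    (Q : Subgroup G) (hcop : (Nat.card Q).Coprime Q.index) : Q.Normal := by
  rw [← Subgroup.normalizer_eq_top_iff]
  apply top_of_selfnorm
  apply le_antisymm _ Subgroup.le_normalizer
  intro x hx
  rw [mem_normalizer_iff_conj_smul_eq]
  apply conj_smul_eq_of_le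
  apply le_of_coprime_normalizer
  · intro y hy
    rw [mem_conj_smul] at hy
    have h1 := conj_mem_of_mem_normalizer hx (Subgroup.le_normalizer hy)
    have e : x * (x⁻¹ * y * x) * x⁻¹ = y := by group
    rwa [e] at h1
  · rw [card_conj_smul]
    exact hcop

theorem index_dvd_card_of_sup_top {G : Type u} [Group G] [Finite G] (C N : Subgroup G)
    [N.Normal] (h : C ⊔ N = ⊤) : C.index ∣ Nat.card N := by
  have h2 := Cfsg.Agent.Lib.Helper4.Card.card_mul_set C N
  rw [← Subgroup.mul_normal C N] at h2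
  have h5 : Nat.card ↥(C ⊔ N) = Nat.card ((↑(C ⊔ N) : Set G)) := rfl
  rw [← h5, h, Subgroup.card_top] at h2
  have h3 := C.index_mul_card
  refine ⟨Nat.card ↥(C ⊓ N), ?_⟩
  have hpos : 0 < Nat.card C := Nat.card_pos
  apply Nat.eq_of_mul_eq_mul_left hpos
  rw [← h2, ← h3]
  ring

theorem hall_compl_of_nilp {G : Type u} [Group G] [Finite G] {C : Subgroup G}
    [hnil : Group.IsNilpotent C] (m r : ℕ) (hcard : Nat.card C = m * r) (hcop : m.Coprime r) :
    ∃ Q : Subgroup G, Q ≤ C ∧ Nat.card Q = m ∧ C ≤ Subgroup.normalizer (Q : Set G) := by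
  haveI : Group.IsSolvable C := inferInstance
  obtain ⟨H, hH⟩ := Cfsg.Agent.Lib.Lead.Hall.hall_exists (G := C) m r hcard hcop
  have hm : 0 < m := by
    rcases Nat.eq_zero_or_pos m with h0 | h0
    · rw [h0, zero_mul] at hcard
      exact absurd hcard Nat.card_pos.ne'
    · exact h0
  have hidx : H.index = r := by
    have h2 : m * H.index = m * r := by
      rw [← hcard, ← hH, mul_comm]
      exact H.index_mul_card
    exact Nat.eq_of_mul_eq_mul_left hm h2
  have hHn : H.Normal := hall_normal_of_nilp H (by rw [hH, hidx]; exact hcop)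
  refine ⟨H.map C.subtype, Subgroup.map_subtype_le H, ?_, ?_⟩
  · rw [Subgroup.card_map_of_injective C.subtype_injective, hH]
  · intro c hc
    apply mem_normalizer_of_conj_le
    rintro y ⟨h, hh, rfl⟩
    exact ⟨⟨c, hc⟩ * h * ⟨c, hc⟩⁻¹, hHn.conj_mem h hh ⟨c, hc⟩, rfl⟩

theorem hall_p'_of_carter {G : Type u} [Group G] [Finite G] (N : Subgroup G) [N.Normal]
    (p k : ℕ) (hp : p.Prime) (hN : Nat.card N = p ^ k) (C : Subgroup G)
    (hC : IsCarterSubgroup C) (hs : C ⊔ N = ⊤) :
    ∃ Q : Subgroup G, Q ≤ C ∧ Nat.card Q = Nat.card G / p ^ (Nat.card G).factorization p ∧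
      C ≤ Subgroup.normalizer (Q : Set G) := by
  have hidx : C.index ∣ p ^ k := hN ▸ index_dvd_card_of_sup_top C N hs
  obtain ⟨a, -, hidx'⟩ := (Nat.dvd_prime_pow hp).mp hidx
  have hn0 : Nat.card G ≠ 0 := Nat.card_pos.ne'
  have hn := Nat.ordProj_mul_ordCompl_eq_self (Nat.card G) p
  have hmcop : p.Coprime (Nat.card G / p ^ (Nat.card G).factorization p) :=
    Nat.coprime_ordCompl hp hn0
  have hmpos : 0 < Nat.card G / p ^ (Nat.card G).factorization p := Nat.ordCompl_pos p hn0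
  have h1 : C.index * Nat.card C = Nat.card G := C.index_mul_card
  rw [hidx'] at h1
  have hmdvd : Nat.card G / p ^ (Nat.card G).factorization p ∣ Nat.card C := by
    apply Nat.Coprime.dvd_of_dvd_mul_left (Nat.Coprime.pow_right a hmcop.symm)
    rw [h1]
    exact Dvd.intro_left _ hn
  obtain ⟨r, hr⟩ := hmdvd
  have hr_dvd : r ∣ p ^ (Nat.card G).factorization p := by
    refine ⟨p ^ a, ?_⟩
    apply Nat.eq_of_mul_eq_mul_right hmpos
    calc p ^ (Nat.card G).factorization p * (Nat.card G / p ^ (Nat.card G).factorization p)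
        = Nat.card G := hn
      _ = p ^ a * Nat.card C := h1.symm
      _ = p ^ a * (Nat.card G / p ^ (Nat.card G).factorization p * r) := by rw [hr]
      _ = r * p ^ a * (Nat.card G / p ^ (Nat.card G).factorization p) := by ring
  obtain ⟨b, -, hrb⟩ := (Nat.dvd_prime_pow hp).mp hr_dvd
  have hcop : (Nat.card G / p ^ (Nat.card G).factorization p).Coprime r := by
    rw [hrb]
    exact Nat.Coprime.pow_right b hmcop.symm
  haveI := hC.1
  exact hall_compl_of_nilp (C := C) _ r hr hcop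

theorem selfnorm_sup_aux (c : ℕ)
    (ih : ∀ m < c, ∀ (H : Type u) [Group H] [Finite H] [Group.IsSolvable H], Nat.card H = m →
      ∀ C₁ C₂ : Subgroup H, IsCarterSubgroup C₁ → IsCarterSubgroup C₂ →
        ∃ g : H, MulAut.conj g • C₁ = C₂)
    (G : Type u) [Group G] [Finite G] [Group.IsSolvable G] (hc : Nat.card G = c)
    (N : Subgroup G) [N.Normal] (C : Subgroup G) (hC : IsCarterSubgroup C) :
    Subgroup.normalizer ((C ⊔ N : Subgroup G) : Set G) = C ⊔ N := by
  apply le_antisymm _ Subgroup.le_normalizer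
  intro x hx
  by_cases hT : C ⊔ N = ⊤
  · rw [hT]
    exact Subgroup.mem_top x
  have hlt : Nat.card ↥(C ⊔ N) < c := by
    rw [← hc]
    by_contra hh
    exact hT (Subgroup.eq_top_of_le_card _ (not_lt.mp hh))
  have hle : MulAut.conj x • C ≤ C ⊔ N := by
    intro y hy
    rw [mem_conj_smul] at hy
    have h1 := conj_mem_of_mem_normalizer hx (Subgroup.mem_sup_left hy : x⁻¹ * y * x ∈ C ⊔ N)
    have e : x * (x⁻¹ * y * x) * x⁻¹ = y := by group
    rwa [e] at h1
  obtain ⟨t, ht⟩ := ih _ hlt ↥(C ⊔ N) rfl _ _ (carter_subgroupOf hC le_sup_left)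
    (carter_subgroupOf (carter_conj_smul x hC) hle)
  have h2 := Cfsg.Agent.S0582.conj_of_subgroupOf _ _ _ le_sup_left hle t ht
  have h3 : x⁻¹ * (t : G) ∈ Subgroup.normalizer (C : Set G) := by
    rw [mem_normalizer_iff_conj_smul_eq, ← conj_smul_smul, h2, conj_smul_smul, inv_mul_cancel,
      conj_one_smul]
  rw [hC.2] at h3
  have h4 : x = (t : G) * (x⁻¹ * (t : G))⁻¹ := by group
  rw [h4]
  exact Subgroup.mul_mem _ t.2 (Subgroup.inv_mem _ (Subgroup.mem_sup_left h3))

theorem carter_map_aux (c : ℕ)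
    (ih : ∀ m < c, ∀ (H : Type u) [Group H] [Finite H] [Group.IsSolvable H], Nat.card H = m →
      ∀ C₁ C₂ : Subgroup H, IsCarterSubgroup C₁ → IsCarterSubgroup C₂ →
        ∃ g : H, MulAut.conj g • C₁ = C₂)
    (G : Type u) [Group G] [Finite G] [Group.IsSolvable G] (hc : Nat.card G = c)
    (N : Subgroup G) [N.Normal] (C : Subgroup G) (hC : IsCarterSubgroup C) :
    IsCarterSubgroup (C.map (QuotientGroup.mk' N)) := by
  refine ⟨?_, ?_⟩
  · haveI := hC.1
    exact Group.nilpotent_of_surjective ((QuotientGroup.mk' N).subgroupMap C)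
      ((QuotientGroup.mk' N).subgroupMap_surjective C)
  · have e : C.map (QuotientGroup.mk' N) = (C ⊔ N).map (QuotientGroup.mk' N) := by
      rw [Subgroup.map_sup, QuotientGroup.map_mk'_self, sup_bot_eq]
    rw [e]
    exact selfnorm_map_of_le N le_sup_right (selfnorm_sup_aux c ih G hc N C hC)

theorem carter_conj_top_aux (c : ℕ)
    (ih : ∀ m < c, ∀ (H : Type u) [Group H] [Finite H] [Group.IsSolvable H], Nat.card H = m →
      ∀ C₁ C₂ : Subgroup H, IsCarterSubgroup C₁ → IsCarterSubgroup C₂ →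
        ∃ g : H, MulAut.conj g • C₁ = C₂)
    (G : Type u) [Group G] [Finite G] [Group.IsSolvable G] (hc : Nat.card G = c)
    (N : Subgroup G) [N.Normal] (p k : ℕ) (hp : p.Prime) (hN : Nat.card N = p ^ k)
    (C₁ C₂ : Subgroup G) (h₁ : IsCarterSubgroup C₁) (h₂ : IsCarterSubgroup C₂)
    (hs₁ : C₁ ⊔ N = ⊤) (hs₂ : C₂ ⊔ N = ⊤) : ∃ g : G, MulAut.conj g • C₁ = C₂ := by
  obtain ⟨Q₁, hQ₁C, hQ₁card, hQ₁n⟩ := hall_p'_of_carter N p k hp hN C₁ h₁ hs₁
  obtain ⟨Q₂, hQ₂C, hQ₂card, hQ₂n⟩ := hall_p'_of_carter N p k hp hN C₂ h₂ hs₂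
  have hn0 : Nat.card G ≠ 0 := Nat.card_pos.ne'
  have hmul : Nat.card G = Nat.card G / p ^ (Nat.card G).factorization p *
      p ^ (Nat.card G).factorization p := by
    rw [mul_comm]
    exact (Nat.ordProj_mul_ordCompl_eq_self (Nat.card G) p).symm
  have hcop : (Nat.card G / p ^ (Nat.card G).factorization p).Coprime
      (p ^ (Nat.card G).factorization p) :=
    Nat.Coprime.pow_right _ (Nat.coprime_ordCompl hp hn0).symm
  obtain ⟨x, hx⟩ := Cfsg.Agent.Lib.Lead.Hall.hall_conj (G := G) _ _ hmul hcop Q₁ Q₂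
    hQ₁card hQ₂card
  have h₁' : IsCarterSubgroup (MulAut.conj x • C₁) := carter_conj_smul x h₁
  have hQ₂n' : MulAut.conj x • C₁ ≤ Subgroup.normalizer (Q₂ : Set G) := by
    intro y hy
    rw [mem_conj_smul] at hy
    have h3 := hQ₁n hy
    rw [mem_normalizer_iff_conj_smul_eq] at h3 ⊢
    rw [← hx, conj_smul_smul]
    have e : y * x = x * (x⁻¹ * y * x) := by group
    rw [e, ← conj_smul_smul, h3]
  have hQ₂C' : Q₂ ≤ MulAut.conj x • C₁ := by
    rw [← hx]
    exact Subgroup.pointwise_smul_le_pointwise_smul_iff.mpr hQ₁C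
  by_cases hL : Subgroup.normalizer (Q₂ : Set G) = ⊤
  · haveI hQn : Q₂.Normal := Subgroup.normalizer_eq_top_iff.mp hL
    have hcardq : Nat.card (G ⧸ Q₂) = p ^ (Nat.card G).factorization p := by
      have h1 := Q₂.card_eq_card_quotient_mul_card_subgroup
      rw [hQ₂card] at h1
      have h2 := Nat.ordProj_mul_ordCompl_eq_self (Nat.card G) p
      have hpos : 0 < Nat.card G / p ^ (Nat.card G).factorization p := Nat.ordCompl_pos p hn0
      exact Nat.eq_of_mul_eq_mul_right hpos (h1.symm.trans h2.symm)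
    haveI : Fact p.Prime := ⟨hp⟩
    haveI : Group.IsNilpotent (G ⧸ Q₂) := (IsPGroup.of_card hcardq).isNilpotent
    have key : ∀ C : Subgroup G, IsCarterSubgroup C → Q₂ ≤ C → C = ⊤ := by
      intro C hC hQC
      have h3 := selfnorm_map_of_le Q₂ hQC hC.2
      have h4 := top_of_selfnorm _ h3
      rw [eq_top_iff]
      intro y _
      exact mem_of_mk_mem_map Q₂ hQC (by rw [h4]; exact Subgroup.mem_top _)
    exact ⟨x, by rw [key _ h₁' hQ₂C', key C₂ h₂ hQ₂C]⟩
  · have hlt : Nat.card ↥(Subgroup.normalizer (Q₂ : Set G)) < c := by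
      rw [← hc]
      by_contra hh
      exact hL (Subgroup.eq_top_of_le_card _ (not_lt.mp hh))
    obtain ⟨l, hl⟩ := ih _ hlt ↥(Subgroup.normalizer (Q₂ : Set G)) rfl _ _
      (carter_subgroupOf h₁' hQ₂n') (carter_subgroupOf h₂ hQ₂n)
    have h5 := Cfsg.Agent.S0582.conj_of_subgroupOf _ _ _ hQ₂n' hQ₂n l hl
    exact ⟨(l : G) * x, by rw [← conj_smul_smul]; exact h5⟩

theorem carter_conj_all : ∀ (c : ℕ) (G : Type u) [Group G] [Finite G] [Group.IsSolvable G],
    Nat.card G = c → ∀ C₁ C₂ : Subgroup G, IsCarterSubgroup C₁ → IsCarterSubgroup C₂ →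
      ∃ g : G, MulAut.conj g • C₁ = C₂ := by
  intro c
  induction c using Nat.strong_induction_on with
  | _ c ih =>
  intro G _ _ _ hc C₁ C₂ h₁ h₂
  rcases subsingleton_or_nontrivial G with hsub | hnt
  · exact ⟨1, Subsingleton.elim _ _⟩
  obtain ⟨N, hNn, hNc, p, k, hp, hk, hNcard⟩ := Cfsg.Agent.Lib.Lead.Hall.exists_minimal_normal G
  haveI := hNn
  have hN0 : N ≠ ⊥ := by
    intro h
    rw [h, Subgroup.card_bot] at hNcard
    have h1 : 1 < p ^ k := Nat.one_lt_pow hk.ne' hp.one_lt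
    omega
  have hlt : Nat.card (G ⧸ N) < c := hc ▸ Cfsg.Agent.Lib.Helper4.MaxSub.card_quotient_lt N hN0
  have hb₁ := carter_map_aux c ih G hc N C₁ h₁
  have hb₂ := carter_map_aux c ih G hc N C₂ h₂
  obtain ⟨gb, hgb⟩ := ih _ hlt (G ⧸ N) rfl _ _ hb₁ hb₂
  obtain ⟨g, rfl⟩ := QuotientGroup.mk'_surjective N gb
  have hmap : ∀ C : Subgroup G,
      (C ⊔ N).map (QuotientGroup.mk' N) = C.map (QuotientGroup.mk' N) := by
    intro C
    rw [Subgroup.map_sup, QuotientGroup.map_mk'_self, sup_bot_eq]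
  have hT : MulAut.conj g • (C₁ ⊔ N) = C₂ ⊔ N :=
    Cfsg.Agent.Lib.Lead.Hall.conj_lift N _ _ le_sup_right le_sup_right g
      (by rw [hmap, hmap]; exact hgb)
  have h₁' := carter_conj_smul g h₁
  have hle₁ : MulAut.conj g • C₁ ≤ C₂ ⊔ N := by
    rw [← hT]
    exact Subgroup.pointwise_smul_le_pointwise_smul_iff.mpr le_sup_left
  suffices h : ∃ t : G, MulAut.conj t • MulAut.conj g • C₁ = C₂ by
    obtain ⟨t, ht⟩ := h
    exact ⟨t * g, by rw [← conj_smul_smul]; exact ht⟩
  by_cases hTtop : C₂ ⊔ N = ⊤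
  · have hs₁ : MulAut.conj g • C₁ ⊔ N = ⊤ := by
      have e : MulAut.conj g • (C₁ ⊔ N) = MulAut.conj g • C₁ ⊔ N := by
        rw [Subgroup.smul_sup, Subgroup.Normal.conj_smul_eq_self g N]
      rw [← e, hT, hTtop]
    exact carter_conj_top_aux c ih G hc N p k hp hNcard _ _ h₁' h₂ hs₁ hTtop
  · have hltT : Nat.card ↥(C₂ ⊔ N) < c := by
      rw [← hc]
      by_contra hh
      exact hTtop (Subgroup.eq_top_of_le_card _ (not_lt.mp hh))
    obtain ⟨t, ht⟩ := ih _ hltT ↥(C₂ ⊔ N) rfl _ _ (carter_subgroupOf h₁' hle₁)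
      (carter_subgroupOf h₂ le_sup_left)
    exact ⟨(t : G), Cfsg.Agent.S0582.conj_of_subgroupOf _ _ _ hle₁ le_sup_left t ht⟩

theorem carter_conj {G : Type u} [Group G] [Finite G] [Group.IsSolvable G] (C₁ C₂ : Subgroup G)
    (h₁ : IsCarterSubgroup C₁) (h₂ : IsCarterSubgroup C₂) : ∃ g : G, MulAut.conj g • C₁ = C₂ :=
  carter_conj_all _ G rfl C₁ C₂ h₁ h₂

theorem carter_map {G : Type u} [Group G] [Finite G] [Group.IsSolvable G] (N : Subgroup G)
    [N.Normal] {C : Subgroup G} (hC : IsCarterSubgroup C) :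
    IsCarterSubgroup (C.map (QuotientGroup.mk' N)) :=
  carter_map_aux (Nat.card G)
    (fun m _ H _ _ _ hm C₁ C₂ h₁ h₂ => carter_conj_all m H hm C₁ C₂ h₁ h₂) G rfl N C hC

end Cfsg.Agent.Lib.Helper22.Carter
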