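import Mathlib
import Cfsg.Prelude.Def_SolvableStructure
import Cfsg.Agent.S0544
import Cfsg.Agent.S0545
import Cfsg.Agent.S0568
import Cfsg.Agent.Lib.Helper4.Conj
import Cfsg.Agent.Lib.Helper4.MaxSub
import Cfsg.Agent.Lib.Helper4.MinNormal
import Cfsg.Agent.Lib.Helper4.HallSys
import Cfsg.Agent.Lib.Helper22.Carter

set_option autoImplicit false

open scoped Pointwise commutatorElement

namespace Cfsg.Agent.Lib.Helper22.SysNorm

universe u

open Cfsg
open Cfsg.Agent.Lib.Helper4.Conj Cfsg.Agent.Lib.Helper4.HallSys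
open Cfsg.Agent.Lib.Helper4.MinNormal Cfsg.Agent.Lib.Helper4.MaxSub
open Cfsg.Agent.Lib.Helper22.Carter

theorem sn_eq_top_of_nilp {G : Type u} [Group G] [Finite G] [Group.IsNilpotent G]
    (K : Nat.Primes → Subgroup G) (hK : IsComplementSystem K) : systemNormalizer K = ⊤ := by
  unfold systemNormalizer
  rw [iInf_eq_top]
  intro p
  exact Subgroup.normalizer_eq_top_iff.mpr (hall_normal_of_nilp (K p) (card_coprime_index hK p))

theorem sn_sup_eq_top {G : Type u} [Group G] [Finite G] [Group.IsSolvable G] (F : Subgroup G)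
    [F.Normal] (hGF : Group.IsNilpotent (G ⧸ F)) (K : Nat.Primes → Subgroup G)
    (hK : IsComplementSystem K) : systemNormalizer K ⊔ F = ⊤ := by
  have h1 := Cfsg.Agent.S0545.systemNormalizer_map K hK F
  have h2 := sn_eq_top_of_nilp (G := G ⧸ F) _ (Cfsg.Agent.S0545.map_complementSystem K hK F)
  rw [h1] at h2
  rw [eq_top_iff]
  intro x _
  have h3 : x ∈ ((systemNormalizer K).map (QuotientGroup.mk' F)).comap (QuotientGroup.mk' F) := by
    rw [h2]
    exact Subgroup.mem_comap.mpr (Subgroup.mem_top _)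
  rwa [Subgroup.comap_map_eq, QuotientGroup.ker_mk'] at h3

theorem normal_inf_series_ne_bot {F : Type u} [Group F] (N : Subgroup F) [hN : N.Normal] :
    ∀ n : ℕ, N ⊓ Subgroup.upperCentralSeries F n ≠ ⊥ → N ⊓ Subgroup.center F ≠ ⊥ := by
  intro n
  induction n with
  | zero =>
    intro h
    rw [Subgroup.upperCentralSeries_zero, inf_bot_eq] at h
    exact absurd rfl h
  | succ n ih =>
    intro h
    by_cases h0 : N ⊓ Subgroup.upperCentralSeries F n = ⊥
    · intro hbot
      apply h
      rw [Subgroup.eq_bot_iff_forall]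
      intro x hx
      obtain ⟨hxN, hxZ⟩ := Subgroup.mem_inf.mp hx
      have hxc : x ∈ Subgroup.center F := by
        rw [Subgroup.mem_center_iff]
        intro g
        have h1 : ⁅x, g⁆ ∈ N ⊓ Subgroup.upperCentralSeries F n := by
          refine Subgroup.mem_inf.mpr ⟨?_, Subgroup.mem_upperCentralSeries_succ_iff.mp hxZ g⟩
          rw [commutatorElement_def]
          have e : x * g * x⁻¹ * g⁻¹ = x * (g * x⁻¹ * g⁻¹) := by group
          rw [e]
          exact N.mul_mem hxN (hN.conj_mem _ (N.inv_mem hxN) g)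
        rw [h0, Subgroup.mem_bot, commutatorElement_def] at h1
        have e2 : g * x = (x * g * x⁻¹ * g⁻¹)⁻¹ * (x * g) := by group
        rw [e2, h1, inv_one, one_mul]
      have h2 : x ∈ N ⊓ Subgroup.center F := Subgroup.mem_inf.mpr ⟨hxN, hxc⟩
      rw [hbot, Subgroup.mem_bot] at h2
      exact h2
    · exact ih h0

theorem normal_inf_center_ne_bot {F : Type u} [Group F] [hnil : Group.IsNilpotent F]
    (N : Subgroup F) [hN : N.Normal] (hne : N ≠ ⊥) : N ⊓ Subgroup.center F ≠ ⊥ := by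
  obtain ⟨k, hk⟩ := Group.IsNilpotent.nilpotent F
  exact normal_inf_series_ne_bot N k (by rw [hk, inf_top_eq]; exact hne)

theorem minNormal_central_in {G : Type u} [Group G] (F N : Subgroup G) [hFn : F.Normal]
    (hFnil : Group.IsNilpotent F) (hN : IsMinNormal N) (hNF : N ≤ F) :
    ∀ n ∈ N, ∀ f ∈ F, f * n = n * f := by
  haveI := hFnil
  haveI hNn : N.Normal := hN.1
  have hM : (N ⊓ (Subgroup.center F).map F.subtype).Normal := by
    constructor
    intro x hx g
    obtain ⟨hxN, z, hz, hzx⟩ := Subgroup.mem_inf.mp hx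
    have hzx' : (z : G) = x := hzx
    subst hzx'
    refine Subgroup.mem_inf.mpr ⟨hNn.conj_mem _ hxN g,
      ⟨⟨g * z * g⁻¹, hFn.conj_mem z z.2 g⟩, ?_, rfl⟩⟩
    have hz' : z ∈ Subgroup.center F := hz
    show (⟨g * z * g⁻¹, hFn.conj_mem z z.2 g⟩ : F) ∈ Subgroup.center F
    rw [Subgroup.mem_center_iff]
    intro f
    apply Subtype.ext
    have hmem : g⁻¹ * (f : G) * g ∈ F := by
      have h := hFn.conj_mem f f.2 g⁻¹
      rwa [inv_inv] at h
    have hcomm := Subgroup.mem_center_iff.mp hz' ⟨g⁻¹ * f * g, hmem⟩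
    have hcomm' : (g⁻¹ * (f : G) * g) * (z : G) = (z : G) * (g⁻¹ * (f : G) * g) :=
      congrArg Subtype.val hcomm
    show (f : G) * (g * (z : G) * g⁻¹) = (g * (z : G) * g⁻¹) * (f : G)
    calc (f : G) * (g * (z : G) * g⁻¹) = g * ((g⁻¹ * (f : G) * g) * (z : G)) * g⁻¹ := by group
      _ = g * ((z : G) * (g⁻¹ * (f : G) * g)) * g⁻¹ := by rw [hcomm']
      _ = (g * (z : G) * g⁻¹) * (f : G) := by group
  have hMne : N ⊓ (Subgroup.center F).map F.subtype ≠ ⊥ := by
    have hne : N.subgroupOf F ≠ ⊥ := by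
      intro h
      rw [Subgroup.subgroupOf_eq_bot, disjoint_iff, inf_eq_left.mpr hNF] at h
      exact hN.2.1 h
    have h1 := normal_inf_center_ne_bot (N.subgroupOf F) hne
    intro h
    apply h1
    rw [Subgroup.eq_bot_iff_forall]
    intro x hx
    obtain ⟨hx1, hx2⟩ := Subgroup.mem_inf.mp hx
    have h2 : (x : G) ∈ N ⊓ (Subgroup.center F).map F.subtype :=
      Subgroup.mem_inf.mpr ⟨Subgroup.mem_subgroupOf.mp hx1, ⟨x, hx2, rfl⟩⟩
    rw [h, Subgroup.mem_bot] at h2
    exact Subtype.ext h2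
  have hle : N ≤ (Subgroup.center F).map F.subtype :=
    inf_eq_left.mp (hN.eq_of_le hM hMne inf_le_left)
  intro n hn f hf
  obtain ⟨z, hz, hzn⟩ := hle hn
  have hzn' : (z : G) = n := hzn
  subst hzn'
  have hz' : z ∈ Subgroup.center F := hz
  have h3 := Subgroup.mem_center_iff.mp hz' ⟨f, hf⟩
  exact congrArg Subtype.val h3

theorem sn_selfnorm_all : ∀ (c : ℕ) (G : Type u) [Group G] [Finite G] [Group.IsSolvable G],
    Nat.card G = c → ∀ (F : Subgroup G) [F.Normal], Group.IsNilpotent F →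
      Group.IsNilpotent (G ⧸ F) → ∀ K : Nat.Primes → Subgroup G, IsComplementSystem K →
        Subgroup.normalizer ((systemNormalizer K : Subgroup G) : Set G) = systemNormalizer K := by
  intro c
  induction c using Nat.strong_induction_on with
  | _ c ih =>
  intro G _ _ _ hc F hFn hFnil hGF K hK
  by_cases hGnil : Group.IsNilpotent G
  · rw [sn_eq_top_of_nilp K hK]
    exact top_le_iff.mp Subgroup.le_normalizer
  have hFne : F ≠ ⊥ := by
    intro hF
    apply hGnil
    haveI := hGF
    exact Subgroup.isNilpotent_of_ker_le_center (QuotientGroup.mk' F)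
      (by rw [QuotientGroup.ker_mk', hF]; exact bot_le)
  obtain ⟨N, hNmin, hNF⟩ := exists_minNormal_le hFn hFne
  haveI hNn : N.Normal := hNmin.1
  have hNne : N ≠ ⊥ := hNmin.2.1
  have hlt : Nat.card (G ⧸ N) < c := hc ▸ card_quotient_lt N hNne
  haveI hFbn : (F.map (QuotientGroup.mk' N)).Normal :=
    hFn.map (QuotientGroup.mk' N) (QuotientGroup.mk'_surjective N)
  have hFbnil : Group.IsNilpotent (F.map (QuotientGroup.mk' N)) := by
    haveI := hFnil
    exact Group.nilpotent_of_surjective ((QuotientGroup.mk' N).subgroupMap F)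
      ((QuotientGroup.mk' N).subgroupMap_surjective F)
  have hGFb : Group.IsNilpotent ((G ⧸ N) ⧸ F.map (QuotientGroup.mk' N)) := by
    haveI := hGF
    exact Group.nilpotent_of_mulEquiv (QuotientGroup.quotientQuotientEquivQuotient N F hNF).symm
  have hKb := Cfsg.Agent.S0545.map_complementSystem K hK N
  have hDb := Cfsg.Agent.S0545.systemNormalizer_map K hK N
  have hih := ih _ hlt (G ⧸ N) rfl (F.map (QuotientGroup.mk' N)) hFbnil hGFb _ hKb
  rw [hDb] at hih
  apply le_antisymm _ Subgroup.le_normalizer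
  intro x hx
  have h1 : QuotientGroup.mk' N x ∈ (systemNormalizer K).map (QuotientGroup.mk' N) := by
    rw [← hih]
    exact Subgroup.le_normalizer_map _ (Subgroup.mem_map_of_mem _ hx)
  obtain ⟨d, hd, hde⟩ := h1
  have hnN : d⁻¹ * x ∈ N := QuotientGroup.eq.mp (show (d : G ⧸ N) = (x : G ⧸ N) from hde)
  have hnD : d⁻¹ * x ∈ Subgroup.normalizer ((systemNormalizer K : Subgroup G) : Set G) :=
    Subgroup.mul_mem _ (Subgroup.inv_mem _ (Subgroup.le_normalizer hd)) hx
  suffices hkey : d⁻¹ * x ∈ systemNormalizer K by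
    have e : x = d * (d⁻¹ * x) := by group
    rw [e]
    exact Subgroup.mul_mem _ hd hkey
  by_cases hcen : N ≤ Subgroup.center G
  · have hAB : (⊥ : Subgroup G) < N := bot_lt_iff_ne_bot.mpr hNne
    have hcomm : ⁅N, (⊤ : Subgroup G)⁆ ≤ ⊥ := by
      rw [Subgroup.commutator_le]
      intro a ha b _
      rw [Subgroup.mem_bot, commutatorElement_def]
      have h2 := Subgroup.mem_center_iff.mp (hcen ha) b
      rw [← h2]
      group
    have h2 := (Cfsg.Agent.S0568.result K hK ⊥ N hAB
      (fun M hM _ hMN => hNmin.2.2 M hM hMN)).1 hcomm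
    rw [bot_sup_eq] at h2
    exact h2 hnN
  · have h3 := Cfsg.Agent.S0568.avoid_min_normal K hK N hNne hNmin.2.2 hcen
    obtain ⟨n, hn⟩ : ∃ n, n = d⁻¹ * x := ⟨_, rfl⟩
    rw [← hn] at hnN hnD ⊢
    have hcD : ∀ e ∈ systemNormalizer K, e * n = n * e := by
      intro e he
      have h4 : e * n * e⁻¹ * n⁻¹ ∈ N ⊓ systemNormalizer K := by
        refine Subgroup.mem_inf.mpr ⟨?_, ?_⟩
        · exact N.mul_mem (hNn.conj_mem n hnN e) (N.inv_mem hnN)
        · have h5 : n * e⁻¹ * n⁻¹ ∈ systemNormalizer K :=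
            conj_mem_of_mem_normalizer hnD (Subgroup.inv_mem _ he)
          have e1 : e * n * e⁻¹ * n⁻¹ = e * (n * e⁻¹ * n⁻¹) := by group
          rw [e1]
          exact Subgroup.mul_mem _ he h5
      rw [h3, Subgroup.mem_bot] at h4
      have e2 : e * n = (e * n * e⁻¹ * n⁻¹) * (n * e) := by group
      rw [e2, h4, one_mul]
    have hcF : ∀ f ∈ F, f * n = n * f :=
      fun f hf => minNormal_central_in F N hFnil hNmin hNF n hnN f hf
    have hcen_n : n ∈ Subgroup.center G := by
      rw [Subgroup.mem_center_iff]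
      intro g
      have hg : g ∈ systemNormalizer K ⊔ F := by
        rw [sn_sup_eq_top F hGF K hK]
        exact Subgroup.mem_top g
      rw [← SetLike.mem_coe, Subgroup.mul_normal] at hg
      obtain ⟨e, he, f, hf, rfl⟩ := Set.mem_mul.mp hg
      rw [mul_assoc, hcF f hf, ← mul_assoc, hcD e he, mul_assoc]
    have h6 : N ⊓ Subgroup.center G = ⊥ := by
      rcases hNmin.le_or_inf_eq_bot (inferInstance : (Subgroup.center G).Normal) with h | h
      · exact absurd h hcen
      · exact h
    have h7 : n ∈ N ⊓ Subgroup.center G := Subgroup.mem_inf.mpr ⟨hnN, hcen_n⟩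
    rw [h6, Subgroup.mem_bot] at h7
    rw [h7]
    exact Subgroup.one_mem _

theorem sn_carter {G : Type u} [Group G] [Finite G] [Group.IsSolvable G] (F : Subgroup G)
    [F.Normal] (hF : Group.IsNilpotent F) (hGF : Group.IsNilpotent (G ⧸ F))
    (K : Nat.Primes → Subgroup G) (hK : IsComplementSystem K) :
    IsCarterSubgroup (systemNormalizer K) :=
  ⟨Cfsg.Agent.S0544.result K hK, sn_selfnorm_all _ G rfl F hF hGF K hK⟩

end Cfsg.Agent.Lib.Helper22.SysNorm
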