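import Mathlib
import Cfsg.Prelude.Def_SolvableStructure
import Cfsg.Agent.S0048
import Cfsg.Agent.S0542
import Cfsg.Agent.S0545
import Cfsg.Agent.S0568
import Cfsg.Agent.S0582
import Cfsg.Agent.Lib.Helper4.Conj
import Cfsg.Agent.Lib.Helper4.Card
import Cfsg.Agent.Lib.Helper4.MaxSub
import Cfsg.Agent.Lib.Helper4.MinNormal
import Cfsg.Agent.Lib.Helper4.HallSys
import Cfsg.Agent.Lib.Lead.Hall
import Cfsg.Agent.Lib.Helper22.Carter
import Cfsg.Agent.Lib.Helper22.SysNorm
import Cfsg.Agent.Lib.Helper22.SNConj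

set_option autoImplicit false

open scoped Pointwise commutatorElement

namespace Cfsg.Agent.Lib.Helper22.CarterSN

universe u v

open Cfsg
open Cfsg.Agent.Lib.Helper4.Conj Cfsg.Agent.Lib.Helper4.HallSys Cfsg.Agent.Lib.Helper4.Card
open Cfsg.Agent.Lib.Helper4.MinNormal Cfsg.Agent.Lib.Helper4.MaxSub
open Cfsg.Agent.Lib.Helper22.Carter Cfsg.Agent.Lib.Helper22.SysNorm
open Cfsg.Agent.Lib.Helper22.SNConj

theorem selfnorm_sup {G : Type u} [Group G] [Finite G] [Group.IsSolvable G] (N : Subgroup G)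
    [N.Normal] {C : Subgroup G} (hC : IsCarterSubgroup C) :
    Subgroup.normalizer ((C ⊔ N : Subgroup G) : Set G) = C ⊔ N :=
  selfnorm_sup_aux (Nat.card G)
    (fun m _ H _ _ _ hm C₁ C₂ h₁ h₂ => carter_conj_all m H hm C₁ C₂ h₁ h₂) G rfl N C hC

theorem carter_map_surj {G : Type u} {G' : Type v} [Group G] [Finite G] [Group.IsSolvable G]
    [Group G'] (f : G →* G') (hf : Function.Surjective f) {C : Subgroup G}
    (hC : IsCarterSubgroup C) : IsCarterSubgroup (C.map f) := by
  refine ⟨?_, ?_⟩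
  · haveI := hC.1
    exact Group.nilpotent_of_surjective (f.subgroupMap C) (f.subgroupMap_surjective C)
  · apply le_antisymm _ Subgroup.le_normalizer
    intro y' hy'
    obtain ⟨y, rfl⟩ := hf y'
    have h1 : y ∈ (Subgroup.normalizer ((C.map f : Subgroup G') : Set G')).comap f := hy'
    have h2 := Subgroup.le_normalizer_comap f h1
    rw [Subgroup.comap_map_eq, selfnorm_sup f.ker hC] at h2
    rw [← SetLike.mem_coe, Subgroup.mul_normal] at h2
    obtain ⟨c, hc, k, hk, rfl⟩ := Set.mem_mul.mp h2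
    rw [map_mul, MonoidHom.mem_ker.mp hk, mul_one]
    exact Subgroup.mem_map_of_mem f hc

theorem carter_exists_all : ∀ (c : ℕ) (G : Type u) [Group G] [Finite G] [Group.IsSolvable G],
    Nat.card G = c → ∃ C : Subgroup G, IsCarterSubgroup C := by
  intro c
  induction c using Nat.strong_induction_on with
  | _ c ih =>
  intro G _ _ _ hc
  by_cases hnil : Group.IsNilpotent G
  · exact ⟨⊤, carter_top⟩
  haveI hnt : Nontrivial G := by
    by_contra h
    rw [not_nontrivial_iff_subsingleton] at h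
    exact hnil inferInstance
  obtain ⟨N, hNn, hNc, p, k, hp, hk, hNcard⟩ := Cfsg.Agent.Lib.Lead.Hall.exists_minimal_normal G
  haveI := hNn
  have hN0 : N ≠ ⊥ := by
    intro h
    rw [h, Subgroup.card_bot] at hNcard
    have h1 : 1 < p ^ k := Nat.one_lt_pow hk.ne' hp.one_lt
    omega
  have hlt : Nat.card (G ⧸ N) < c := hc ▸ card_quotient_lt N hN0
  obtain ⟨Cb, hCb⟩ := ih _ hlt (G ⧸ N) rfl
  have hs : Function.Surjective (QuotientGroup.mk' N) := QuotientGroup.mk'_surjective N
  obtain ⟨H, hHdef⟩ : ∃ H : Subgroup G, H = Cb.comap (QuotientGroup.mk' N) := ⟨_, rfl⟩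
  have hmapH : H.map (QuotientGroup.mk' N) = Cb := by
    rw [hHdef]
    exact Subgroup.map_comap_eq_self_of_surjective hs Cb
  by_cases hH : H = ⊤
  · have hCbtop : Cb = ⊤ := by
      rw [← hmapH, hH]
      exact Subgroup.map_top_of_surjective _ hs
    have hGN : Group.IsNilpotent (G ⧸ N) := by
      rw [hCbtop] at hCb
      haveI := hCb.1
      exact Group.nilpotent_of_mulEquiv (Subgroup.topEquiv : (⊤ : Subgroup (G ⧸ N)) ≃* G ⧸ N)
    haveI : Fact p.Prime := ⟨hp⟩
    have hNnil : Group.IsNilpotent N := (IsPGroup.of_card hNcard).isNilpotent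
    obtain ⟨K, hK⟩ := exists_complementSystem (G := G)
    exact ⟨_, sn_carter N hNnil hGN K hK⟩
  · have hltH : Nat.card ↥H < c := by
      rw [← hc]
      by_contra hh
      exact hH (Subgroup.eq_top_of_le_card _ (not_lt.mp hh))
    obtain ⟨C', hC'⟩ := ih _ hltH ↥H rfl
    refine ⟨C'.map H.subtype, carter_map_subtype hC' ?_⟩
    have hφs : Function.Surjective ((QuotientGroup.mk' N).subgroupMap H) :=
      (QuotientGroup.mk' N).subgroupMap_surjective H
    haveI hnilHb : Group.IsNilpotent ↥(H.map (QuotientGroup.mk' N)) := by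
      rw [hmapH]
      exact hCb.1
    have hC'map : IsCarterSubgroup (C'.map ((QuotientGroup.mk' N).subgroupMap H)) :=
      carter_map_surj _ hφs hC'
    have htop : C'.map ((QuotientGroup.mk' N).subgroupMap H) = ⊤ :=
      top_of_selfnorm _ hC'map.2
    have hcover : ∀ h ∈ H, ∃ c : H, c ∈ C' ∧
        QuotientGroup.mk' N (c : G) = QuotientGroup.mk' N h := by
      intro h hh
      have h1 : (QuotientGroup.mk' N).subgroupMap H ⟨h, hh⟩ ∈
          C'.map ((QuotientGroup.mk' N).subgroupMap H) := by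
        rw [htop]
        exact Subgroup.mem_top _
      obtain ⟨c, hc, hce⟩ := h1
      exact ⟨c, hc, congrArg Subtype.val hce⟩
    intro x hx
    have hxb : QuotientGroup.mk' N x ∈ Subgroup.normalizer (Cb : Set (G ⧸ N)) := by
      apply mem_normalizer_of_conj_le
      intro yb hyb
      rw [← hmapH] at hyb
      obtain ⟨h, hh, rfl⟩ := hyb
      obtain ⟨c, hc, hce⟩ := hcover h hh
      have h2 := conj_mem_of_mem_normalizer hx (Subgroup.mem_map_of_mem H.subtype hc)
      have h3 : x * (c : G) * x⁻¹ ∈ H := Subgroup.map_subtype_le _ h2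
      have h4 := Subgroup.mem_map_of_mem (QuotientGroup.mk' N) h3
      rw [hmapH, map_mul, map_mul, map_inv, hce] at h4
      exact h4
    rw [hCb.2] at hxb
    rw [hHdef]
    exact Subgroup.mem_comap.mpr hxb

theorem carter_exists {G : Type u} [Group G] [Finite G] [Group.IsSolvable G] :
    ∃ C : Subgroup G, IsCarterSubgroup C :=
  carter_exists_all _ G rfl

theorem coatom_not_normal_of_carter_le {G : Type u} [Group G] [Finite G] [Group.IsSolvable G]
    {C M : Subgroup G} (hC : IsCarterSubgroup C) (hCM : C ≤ M) (hM : M ≠ ⊤) : ¬ M.Normal := by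
  intro hMn
  apply hM
  rw [eq_top_iff]
  intro g _
  have hle : MulAut.conj g • C ≤ M := by
    intro y hy
    rw [mem_conj_smul] at hy
    have h1 := hMn.conj_mem _ (hCM hy) g
    have e : g * (g⁻¹ * y * g) * g⁻¹ = y := by group
    rwa [e] at h1
  obtain ⟨t, ht⟩ := carter_conj _ _ (carter_subgroupOf hC hCM)
    (carter_subgroupOf (carter_conj_smul g hC) hle)
  have h2 := Cfsg.Agent.S0582.conj_of_subgroupOf _ _ _ hCM hle t ht
  have h3 : g⁻¹ * (t : G) ∈ Subgroup.normalizer (C : Set G) := by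
    rw [mem_normalizer_iff_conj_smul_eq, ← conj_smul_smul, h2, conj_smul_smul, inv_mul_cancel,
      conj_one_smul]
  rw [hC.2] at h3
  have h4 : g = (t : G) * (g⁻¹ * (t : G))⁻¹ := by group
  rw [h4]
  exact M.mul_mem t.2 (M.inv_mem (hCM h3))

theorem mem_normalizer_of_mem_sn {G : Type u} [Group G] {K : Nat.Primes → Subgroup G} {d : G}
    (hd : d ∈ systemNormalizer K) (p : Nat.Primes) : d ∈ Subgroup.normalizer (K p : Set G) := by
  have h := hd
  simp only [systemNormalizer, Subgroup.mem_iInf] at h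
  exact h p

theorem sn_le_coatom {G : Type u} [Group G] [Finite G] [Group.IsSolvable G]
    (K : Nat.Primes → Subgroup G) (hK : IsComplementSystem K) (M : Subgroup G) (hM : IsCoatom M)
    (hMn : ¬ M.Normal) (hKM : ∀ p : Nat.Primes, (p : ℕ) ∣ M.index → K p ≤ M) :
    systemNormalizer K ≤ M := by
  obtain ⟨N, -, hNmin⟩ := Finite.exists_le_minimal
    (p := fun L : Subgroup G => L.Normal ∧ ¬ L ≤ M) (a := ⊤)
    ⟨inferInstance, fun h => hM.1 (top_le_iff.mp h)⟩
  haveI hNn : N.Normal := hNmin.prop.1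
  have hNM : ¬ N ≤ M := hNmin.prop.2
  have hsup : M ⊔ N = ⊤ := sup_eq_top_of_not_le hM hNM
  have hNne : N ≠ ⊥ := fun h => hNM (h ▸ bot_le)
  have hcommNM : ⁅N, N⁆ ≤ M := by
    by_contra hcon
    have h1 : N ≤ ⁅N, N⁆ := hNmin.le_of_le ⟨inferInstance, hcon⟩ (Subgroup.commutator_le_left N N)
    have h2 : ⁅N, N⁆ < N := Group.IsSolvable.commutator_lt_of_ne_bot hNne
    exact absurd h1 (not_le_of_gt h2)
  have hAn : (N ⊓ M).Normal := by
    constructor
    intro a ha g
    obtain ⟨haN, haM⟩ := Subgroup.mem_inf.mp ha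
    have hg : g ∈ N ⊔ M := by
      rw [sup_comm, hsup]
      exact Subgroup.mem_top g
    rw [← SetLike.mem_coe, Subgroup.normal_mul] at hg
    obtain ⟨n, hn, m, hm, rfl⟩ := Set.mem_mul.mp hg
    have hbN : m * a * m⁻¹ ∈ N := hNn.conj_mem a haN m
    have hbM : m * a * m⁻¹ ∈ M := M.mul_mem (M.mul_mem hm haM) (M.inv_mem hm)
    have hc : ⁅n, m * a * m⁻¹⁆ ∈ M := hcommNM (Subgroup.commutator_mem_commutator hn hbN)
    rw [commutatorElement_def] at hc
    have e : n * m * a * (n * m)⁻¹ =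
        (n * (m * a * m⁻¹) * n⁻¹ * (m * a * m⁻¹)⁻¹) * (m * a * m⁻¹) := by group
    refine Subgroup.mem_inf.mpr ⟨hNn.conj_mem a haN _, ?_⟩
    rw [e]
    exact M.mul_mem hc hbM
  haveI := hAn
  have hAlt : N ⊓ M < N := lt_of_le_of_ne inf_le_left (fun h => hNM (inf_eq_left.mp h))
  have hchief : ∀ L : Subgroup G, L.Normal → N ⊓ M ≤ L → L ≤ N → L = N ⊓ M ∨ L = N := by
    intro L hL hAL hLN
    by_cases hLM : L ≤ M
    · left
      exact le_antisymm (le_inf hLN hLM) hAL
    · right
      exact le_antisymm hLN (hNmin.le_of_le ⟨hL, hLM⟩ hLN)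
  have hecc : ¬ ⁅N, (⊤ : Subgroup G)⁆ ≤ N ⊓ M := by
    intro hcen
    apply hMn
    constructor
    intro m hm g
    have hg : g ∈ N ⊔ M := by
      rw [sup_comm, hsup]
      exact Subgroup.mem_top g
    rw [← SetLike.mem_coe, Subgroup.normal_mul] at hg
    obtain ⟨n, hn, m', hm', rfl⟩ := Set.mem_mul.mp hg
    have hbM : m' * m * m'⁻¹ ∈ M := M.mul_mem (M.mul_mem hm' hm) (M.inv_mem hm')
    have hc : ⁅n, m' * m * m'⁻¹⁆ ∈ N ⊓ M :=
      hcen (Subgroup.commutator_mem_commutator hn (Subgroup.mem_top _))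
    rw [commutatorElement_def] at hc
    have e : n * m' * m * (n * m')⁻¹ =
        (n * (m' * m * m'⁻¹) * n⁻¹ * (m' * m * m'⁻¹)⁻¹) * (m' * m * m'⁻¹) := by group
    rw [e]
    exact M.mul_mem (Subgroup.mem_inf.mp hc).2 hbM
  have havoid : N ⊓ systemNormalizer K ≤ N ⊓ M :=
    (Cfsg.Agent.S0568.result K hK (N ⊓ M) N hAlt hchief).2 hecc
  intro d hd
  have hd' : d ∈ M ⊔ N := by
    rw [hsup]
    exact Subgroup.mem_top d
  rw [← SetLike.mem_coe, Subgroup.mul_normal] at hd'
  obtain ⟨m, hm, n, hn, hmn⟩ := Set.mem_mul.mp hd'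
  suffices hnM : n ∈ M by
    rw [← hmn]
    exact M.mul_mem hm hnM
  have hL : IsComplementSystem (fun p => MulAut.conj n • K p) := complementSystem_conj hK n
  have hKL : ∀ p : Nat.Primes, K p ⊔ (N ⊓ M) = MulAut.conj n • K p ⊔ (N ⊓ M) := by
    intro p
    by_cases hp : (p : ℕ) ∣ M.index
    · have hKpM := hKM p hp
      have hdn : d ∈ Subgroup.normalizer (K p : Set G) := mem_normalizer_of_mem_sn hd p
      have hconjM : ∀ k ∈ K p, n * k * n⁻¹ ∈ M := by
        intro k hk
        have h1 : d * k * d⁻¹ ∈ K p := conj_mem_of_mem_normalizer hdn hk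
        have e : n * k * n⁻¹ = m⁻¹ * (d * k * d⁻¹) * m := by
          rw [← hmn]
          group
        rw [e]
        exact M.mul_mem (M.mul_mem (M.inv_mem hm) (hKpM h1)) hm
      have hcommA : ∀ k ∈ K p, n * k * n⁻¹ * k⁻¹ ∈ N ⊓ M := by
        intro k hk
        refine Subgroup.mem_inf.mpr ⟨?_, M.mul_mem (hconjM k hk) (M.inv_mem (hKpM hk))⟩
        have e : n * k * n⁻¹ * k⁻¹ = n * (k * n⁻¹ * k⁻¹) := by group
        rw [e]
        exact N.mul_mem hn (hNn.conj_mem _ (N.inv_mem hn) k)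
      apply le_antisymm
      · apply sup_le _ le_sup_right
        intro k hk
        have h1 := hcommA k⁻¹ (Subgroup.inv_mem _ hk)
        rw [inv_inv] at h1
        have e : k = (n * k * n⁻¹) * (n * k⁻¹ * n⁻¹ * k) := by group
        rw [e]
        exact Subgroup.mul_mem _ (Subgroup.mem_sup_left (conj_mem_conj_smul hk))
          (Subgroup.mem_sup_right h1)
      · apply sup_le _ le_sup_right
        intro y hy
        rw [mem_conj_smul] at hy
        have h1 := hcommA _ hy
        have e : y = (n * (n⁻¹ * y * n) * n⁻¹ * (n⁻¹ * y * n)⁻¹) * (n⁻¹ * y * n) := by group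
        rw [e]
        exact Subgroup.mul_mem _ (Subgroup.mem_sup_right h1) (Subgroup.mem_sup_left hy)
    · have hNle : N ≤ K p ⊔ (N ⊓ M) := by
        rw [← Subgroup.relIndex_eq_one]
        have h1 : (K p ⊔ (N ⊓ M)).relIndex N ∣ (K p).index :=
          (Cfsg.Agent.S0542.relIndex_dvd_index_of_normal_right _ N).trans
            (Subgroup.index_dvd_of_le le_sup_left)
        have h2 : (K p ⊔ (N ⊓ M)).relIndex N ∣ M.index := by
          have h3 : (K p ⊔ (N ⊓ M)).relIndex N ∣ (N ⊓ M).relIndex N :=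
            Subgroup.relIndex_dvd_of_le_left N le_sup_right
          rw [Subgroup.inf_relIndex_left] at h3
          exact h3.trans (Cfsg.Agent.S0542.relIndex_dvd_index_of_normal_right M N)
        rw [hK p] at h1
        by_contra hne
        obtain ⟨r, hr, hrdvd⟩ := Nat.exists_prime_and_dvd hne
        have hrp : r = p :=
          (Nat.prime_dvd_prime_iff_eq hr p.2).mp (hr.dvd_of_dvd_pow (hrdvd.trans h1))
        exact hp (hrp ▸ hrdvd.trans h2)
      have hnmem : n ∈ K p ⊔ (N ⊓ M) := hNle hn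
      have e1 : MulAut.conj n • (K p ⊔ (N ⊓ M)) = MulAut.conj n • K p ⊔ (N ⊓ M) := by
        rw [Subgroup.smul_sup, Subgroup.Normal.conj_smul_eq_self n (N ⊓ M)]
      rw [← e1, conj_smul_self_of_mem hnmem]
  obtain ⟨a, ha, hconj⟩ := rel_conj (N ⊓ M) K _ hK hL hKL
  have hmemD : n⁻¹ * a ∈ systemNormalizer K := by
    simp only [systemNormalizer, Subgroup.mem_iInf]
    intro p
    have hc : MulAut.conj a • K p = MulAut.conj n • K p := hconj p
    rw [mem_normalizer_iff_conj_smul_eq, ← conj_smul_smul, hc, conj_smul_smul, inv_mul_cancel,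
      conj_one_smul]
  have hmemN : n⁻¹ * a ∈ N := N.mul_mem (N.inv_mem hn) (Subgroup.mem_inf.mp ha).1
  have h5 : n⁻¹ * a ∈ N ⊓ M := havoid (Subgroup.mem_inf.mpr ⟨hmemN, hmemD⟩)
  have e : n = a * (n⁻¹ * a)⁻¹ := by group
  rw [e]
  exact M.mul_mem (Subgroup.mem_inf.mp ha).2 (M.inv_mem (Subgroup.mem_inf.mp h5).2)

theorem carter_contains_sn_all :
    ∀ (c : ℕ) (G : Type u) [Group G] [Finite G] [Group.IsSolvable G],
    Nat.card G = c → ∀ C : Subgroup G, IsCarterSubgroup C →
      ∃ K : Nat.Primes → Subgroup G, IsComplementSystem K ∧ systemNormalizer K ≤ C := by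
  intro c
  induction c using Nat.strong_induction_on with
  | _ c ih =>
  intro G _ _ _ hc C hC
  rcases eq_top_or_exists_le_coatom C with hCtop | ⟨M, hM, hCM⟩
  · obtain ⟨K, hK⟩ := exists_complementSystem (G := G)
    exact ⟨K, hK, hCtop ▸ le_top⟩
  have hMn : ¬ M.Normal := coatom_not_normal_of_carter_le hC hCM hM.1
  have hlt : Nat.card ↥M < c := by
    rw [← hc]
    by_contra hh
    exact hM.1 (Subgroup.eq_top_of_le_card _ (not_lt.mp hh))
  obtain ⟨KM, hKM, hDM⟩ := ih _ hlt ↥M rfl _ (carter_subgroupOf hC hCM)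
  obtain ⟨q, hq, a, hidx⟩ : ∃ q : ℕ, q.Prime ∧ ∃ a : ℕ, M.index = q ^ a := by
    have h := Cfsg.Agent.S0048.result M hM
    rw [isPrimePow_nat_iff] at h
    obtain ⟨q, a, hq, -, h⟩ := h
    exact ⟨q, hq, a, h.symm⟩
  have hn0 : Nat.card G ≠ 0 := Nat.card_pos.ne'
  have hext : ∀ p : Nat.Primes, ∃ H : Subgroup G,
      H.index = (p : ℕ) ^ (Nat.card G).factorization p ∧ (KM p).map M.subtype ≤ H := by
    intro p
    have hmul : Nat.card G = Nat.card G / (p : ℕ) ^ (Nat.card G).factorization p *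
        (p : ℕ) ^ (Nat.card G).factorization p := by
      rw [mul_comm]
      exact (Nat.ordProj_mul_ordCompl_eq_self (Nat.card G) p).symm
    have hcop : (Nat.card G / (p : ℕ) ^ (Nat.card G).factorization p).Coprime
        ((p : ℕ) ^ (Nat.card G).factorization p) :=
      Nat.Coprime.pow_right _ (Nat.coprime_ordCompl p.2 hn0).symm
    have hcard : (Nat.card ((KM p).map M.subtype)).Coprime
        ((p : ℕ) ^ (Nat.card G).factorization p) := by
      rw [Subgroup.card_map_of_injective M.subtype_injective]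
      exact Nat.Coprime.pow_right _
        ((Nat.Prime.coprime_iff_not_dvd p.2).mpr (Cfsg.Agent.S0545.not_dvd_card hKM p)).symm
    obtain ⟨H, hH, hle⟩ := Cfsg.Agent.Lib.Lead.Hall.hall_le (G := G) _ _ hmul hcop _ hcard
    refine ⟨H, ?_, hle⟩
    have h1 := H.index_mul_card
    rw [hH] at h1
    have hpos : 0 < Nat.card G / (p : ℕ) ^ (Nat.card G).factorization p :=
      Nat.ordCompl_pos p hn0
    have h2 := Nat.ordProj_mul_ordCompl_eq_self (Nat.card G) p
    exact Nat.eq_of_mul_eq_mul_right hpos (h1.trans h2.symm)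
  choose K hKidx hKle using hext
  have hKsys : IsComplementSystem K := hKidx
  refine ⟨K, hKsys, ?_⟩
  have hKMle : ∀ p : Nat.Primes, KM p ≤ (K p).subgroupOf M := by
    intro p y hy
    rw [Subgroup.mem_subgroupOf]
    exact hKle p (Subgroup.mem_map_of_mem M.subtype hy)
  have hKMeq : ∀ p : Nat.Primes, KM p = (K p).subgroupOf M := by
    intro p
    apply le_antisymm (hKMle p)
    rw [← Subgroup.relIndex_eq_one]
    have h1 : (KM p).relIndex ((K p).subgroupOf M) ∣ (KM p).index :=
      Subgroup.relIndex_dvd_index_of_le (hKMle p)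
    have h2 : (KM p).relIndex ((K p).subgroupOf M) ∣ Nat.card ((K p).subgroupOf M) :=
      Subgroup.relIndex_dvd_card _ _
    have h3 : Nat.card ((K p).subgroupOf M) ∣ Nat.card (K p) := by
      rw [card_subgroupOf_eq]
      exact Subgroup.card_dvd_of_le inf_le_left
    rw [hKM p] at h1
    by_contra hne
    obtain ⟨r, hr, hrdvd⟩ := Nat.exists_prime_and_dvd hne
    have hrp : r = p :=
      (Nat.prime_dvd_prime_iff_eq hr p.2).mp (hr.dvd_of_dvd_pow (hrdvd.trans h1))
    exact Cfsg.Agent.S0545.not_dvd_card hKsys p (hrp ▸ (hrdvd.trans (h2.trans h3)))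
  have hKqM : ∀ p : Nat.Primes, (p : ℕ) ∣ M.index → K p ≤ M := by
    intro p hp
    have hpq : (p : ℕ) = q := by
      rw [hidx] at hp
      exact (Nat.prime_dvd_prime_iff_eq p.2 hq).mp (p.2.dvd_of_dvd_pow hp)
    have e1 : (K p).index * Nat.card (K p) = Nat.card G := (K p).index_mul_card
    have e2 : (KM p).index * Nat.card (KM p) = Nat.card M := (KM p).index_mul_card
    have e3 : M.index * Nat.card M = Nat.card G := M.index_mul_card
    have hG : (p : ℕ) ^ (a + (Nat.card M).factorization p) * Nat.card (KM p) = Nat.card G := by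
      calc (p : ℕ) ^ (a + (Nat.card M).factorization p) * Nat.card (KM p)
          = (p : ℕ) ^ a * ((p : ℕ) ^ (Nat.card M).factorization p * Nat.card (KM p)) := by
            rw [pow_add, mul_assoc]
        _ = (p : ℕ) ^ a * ((KM p).index * Nat.card (KM p)) := by rw [hKM p]
        _ = (p : ℕ) ^ a * Nat.card M := by rw [e2]
        _ = M.index * Nat.card M := by rw [hidx, hpq]
        _ = Nat.card G := e3
    have hdvd : Nat.card (K p) ∣ Nat.card (KM p) := by
      have hcop : (Nat.card (K p)).Coprime ((p : ℕ) ^ (a + (Nat.card M).factorization p)) :=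
        Nat.Coprime.pow_right _
          ((Nat.Prime.coprime_iff_not_dvd p.2).mpr (Cfsg.Agent.S0545.not_dvd_card hKsys p)).symm
      apply hcop.dvd_of_dvd_mul_left
      rw [hG, ← e1]
      exact Dvd.intro_left _ rfl
    have hle : Nat.card (K p) ≤ Nat.card ↥(K p ⊓ M) := by
      rw [← card_subgroupOf_eq, ← hKMeq p]
      exact Nat.le_of_dvd Nat.card_pos hdvd
    exact inf_eq_left.mp (Subgroup.eq_of_le_of_card_ge inf_le_left hle)
  have hDM' : systemNormalizer K ≤ M := sn_le_coatom K hKsys M hM hMn hKqM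
  intro d hd
  have hdM : d ∈ M := hDM' hd
  have h1 : (⟨d, hdM⟩ : M) ∈ systemNormalizer KM := by
    simp only [systemNormalizer, Subgroup.mem_iInf]
    intro p
    apply mem_normalizer_of_conj_le
    intro y hy
    have hdn : d ∈ Subgroup.normalizer (K p : Set G) := mem_normalizer_of_mem_sn hd p
    rw [hKMeq p, Subgroup.mem_subgroupOf] at hy ⊢
    exact conj_mem_of_mem_normalizer hdn hy
  exact Subgroup.mem_subgroupOf.mp (hDM h1)

theorem carter_contains_sn {G : Type u} [Group G] [Finite G] [Group.IsSolvable G]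
    (C : Subgroup G) (hC : IsCarterSubgroup C) :
    ∃ K : Nat.Primes → Subgroup G, IsComplementSystem K ∧ systemNormalizer K ≤ C :=
  carter_contains_sn_all _ G rfl C hC

end Cfsg.Agent.Lib.Helper22.CarterSN
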