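import Mathlib
import Cfsg.Prelude.Def_SolvableStructure
import Cfsg.Agent.Lib.Helper4.Conj
import Cfsg.Agent.Lib.Helper4.HallSys
import Cfsg.Agent.Lib.Lead.Hall

set_option autoImplicit false

open scoped Pointwise

namespace Cfsg.Agent.Lib.Helper22.SNConj

universe u

open Cfsg
open Cfsg.Agent.Lib.Helper4.Conj Cfsg.Agent.Lib.Helper4.HallSys

theorem exists_complementSystem {G : Type u} [Group G] [Finite G] [Group.IsSolvable G] :
    ∃ K : Nat.Primes → Subgroup G, IsComplementSystem K := by
  have h : ∀ p : Nat.Primes, ∃ H : Subgroup G,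
      H.index = (p : ℕ) ^ (Nat.card G).factorization p := by
    intro p
    have hn0 : Nat.card G ≠ 0 := Nat.card_pos.ne'
    have hmul : Nat.card G = Nat.card G / (p : ℕ) ^ (Nat.card G).factorization p *
        (p : ℕ) ^ (Nat.card G).factorization p := by
      rw [mul_comm]
      exact (Nat.ordProj_mul_ordCompl_eq_self (Nat.card G) p).symm
    have hcop : (Nat.card G / (p : ℕ) ^ (Nat.card G).factorization p).Coprime
        ((p : ℕ) ^ (Nat.card G).factorization p) :=
      Nat.Coprime.pow_right _ (Nat.coprime_ordCompl p.2 hn0).symm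
    obtain ⟨H, hH⟩ := Cfsg.Agent.Lib.Lead.Hall.hall_exists (G := G) _ _ hmul hcop
    refine ⟨H, ?_⟩
    have h1 := H.index_mul_card
    rw [hH] at h1
    have hpos : 0 < Nat.card G / (p : ℕ) ^ (Nat.card G).factorization p :=
      Nat.ordCompl_pos p hn0
    have h2 := Nat.ordProj_mul_ordCompl_eq_self (Nat.card G) p
    exact Nat.eq_of_mul_eq_mul_right hpos (h1.trans h2.symm)
  choose K hK using h
  exact ⟨K, hK⟩

theorem normalizer_conj_smul {G : Type u} [Group G] (g : G) (H : Subgroup G) :
    Subgroup.normalizer ((MulAut.conj g • H : Subgroup G) : Set G) =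
      MulAut.conj g • Subgroup.normalizer (H : Set G) := by
  ext x
  rw [mem_conj_smul, mem_normalizer_iff_conj_smul_eq, mem_normalizer_iff_conj_smul_eq]
  constructor
  · intro h
    have e : g⁻¹ * x * g = g⁻¹ * (x * g) := by group
    rw [e, ← conj_smul_smul, ← conj_smul_smul, h, conj_smul_smul, inv_mul_cancel,
      conj_one_smul]
  · intro h
    have e : x * g = g * (g⁻¹ * x * g) := by group
    rw [conj_smul_smul, e, ← conj_smul_smul, h]

theorem sn_conj {G : Type u} [Group G] (g : G) (K : Nat.Primes → Subgroup G) :
    systemNormalizer (fun p => MulAut.conj g • K p) = MulAut.conj g • systemNormalizer K := by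
  ext x
  rw [mem_conj_smul]
  simp only [systemNormalizer, Subgroup.mem_iInf]
  constructor
  · intro h p
    have h1 := h p
    rw [normalizer_conj_smul, mem_conj_smul] at h1
    exact h1
  · intro h p
    rw [normalizer_conj_smul, mem_conj_smul]
    exact h p

theorem complementSystem_conj {G : Type u} [Group G] [Finite G] {K : Nat.Primes → Subgroup G}
    (hK : IsComplementSystem K) (g : G) :
    IsComplementSystem (fun p => MulAut.conj g • K p) := by
  intro p
  show (MulAut.conj g • K p).index = _
  rw [index_conj_smul]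
  exact hK p

end Cfsg.Agent.Lib.Helper22.SNConj
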